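import Cfsg.Agent.J3Mult.SubData
import Cfsg.Agent.J3Mult.Code

set_option autoImplicit false
set_option maxRecDepth 100000
set_option Elab.async false

/-!
Kernel evaluation of the checks on the subgroup of order 8160.
-/

namespace CfsgLib.J3Mult

/-- The least of the three multiples of a code. -/
def canC (n : ℕ) : ℕ := min n (min (omC n) (omC (omC n)))

/-- An element of the subgroup. -/
def sEl (a : ℕ) : ℕ := fieldAt sTab 162 a

/-- Left multiplication in the subgroup. -/
def okSubMul (g : ℕ) (t : List (List ℕ)) (s n : ℕ) : Bool := (List.range n).all fun j =>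
  let a := s + j
  Nat.blt (fieldAt t 13 a) 8160 && Nat.beq (canC (mulC g (sEl a))) (sEl (fieldAt t 13 a))

/-- Each element of the subgroup is a generator times an earlier one. -/
def okSubParents : Bool := Nat.beq (sEl 0) (canC oneC) && (List.range 8159).all fun k =>
  Nat.blt (fieldAt sParents 14 (k + 1) / 2) (k + 1) &&
    Nat.beq (canC (mulC (sGens.getD (fieldAt sParents 14 (k + 1) % 2) (oneC, 0, 0)).1
      (sEl (fieldAt sParents 14 (k + 1) / 2)))) (sEl (k + 1))

/-- The values increase along the indices. -/
def okSubDistinct : Bool := (List.range 8160).all fun k =>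
  Nat.blt (fieldAt sRank 13 k) 8160 && Nat.beq (fieldAt sIdx 13 (fieldAt sRank 13 k)) k &&
    Nat.beq (canC (sEl k)) (sEl k) &&
    (Nat.beq k 8159 || Nat.blt (sEl (fieldAt sIdx 13 k)) (sEl (fieldAt sIdx 13 (k + 1))))

theorem subA0_ok : okSubMul (sGens.getD 0 (oneC, 0, 0)).1 sMulA 0 2040 = true := by decide +kernel

theorem subA1_ok : okSubMul (sGens.getD 0 (oneC, 0, 0)).1 sMulA 2040 2040 = true := by decide +kernel

theorem subA2_ok : okSubMul (sGens.getD 0 (oneC, 0, 0)).1 sMulA 4080 2040 = true := by decide +kernel

theorem subA3_ok : okSubMul (sGens.getD 0 (oneC, 0, 0)).1 sMulA 6120 2040 = true := by decide +kernel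

theorem subB0_ok : okSubMul (sGens.getD 1 (oneC, 0, 0)).1 sMulB 0 2040 = true := by decide +kernel

theorem subB1_ok : okSubMul (sGens.getD 1 (oneC, 0, 0)).1 sMulB 2040 2040 = true := by decide +kernel

theorem subB2_ok : okSubMul (sGens.getD 1 (oneC, 0, 0)).1 sMulB 4080 2040 = true := by decide +kernel

theorem subB3_ok : okSubMul (sGens.getD 1 (oneC, 0, 0)).1 sMulB 6120 2040 = true := by decide +kernel

theorem subParents_ok : okSubParents = true := by decide +kernel

theorem subDistinct_ok : okSubDistinct = true := by decide +kernel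

end CfsgLib.J3Mult
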