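import Cfsg.Agent.J3Mult.Simple
import Cfsg.Agent.J3Mult.Unitary
import Cfsg.Agent.J3Mult.SubCheck
import Cfsg.Prelude.Def_Sporadic

set_option autoImplicit false
set_option maxRecDepth 100000

/-!
The Janko group as a permutation group of degree 6156.
-/

namespace CfsgLib.J3Mult

open Cfsg Cfsg.Spor H29.ThreeJ Matrix

theorem canC_eq (n : ℕ) : canC n = cano n := rfl

theorem sGens_ok : okLets sGens = true := by decide +kernel

theorem subMul_at {g : ℕ} {t : List (List ℕ)} {s n a : ℕ} (h : okSubMul g t s n = true) (h1 : s ≤ a) (h2 : a < s + n) :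
    fieldAt t 13 a < 8160 ∧ canC (mulC g (sEl a)) = sEl (fieldAt t 13 a) := by
  simp only [okSubMul, List.all_eq_true, List.mem_range, Bool.and_eq_true, Nat.blt_eq, Nat.beq_eq] at h
  have h3 := h (a - s) (by omega)
  rwa [Nat.add_sub_cancel' h1] at h3

theorem subA_spec {a : ℕ} (ha : a < 8160) : fieldAt sMulA 13 a < 8160 ∧
    canC (mulC (sGens.getD 0 (oneC, 0, 0)).1 (sEl a)) = sEl (fieldAt sMulA 13 a) := by
  by_cases h0 : a < 2040
  · exact subMul_at subA0_ok (by omega) (by omega)
  by_cases h1 : a < 4080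
  · exact subMul_at subA1_ok (by omega) (by omega)
  by_cases h2 : a < 6120
  · exact subMul_at subA2_ok (by omega) (by omega)
  exact subMul_at subA3_ok (by omega) (by omega)

theorem subB_spec {a : ℕ} (ha : a < 8160) : fieldAt sMulB 13 a < 8160 ∧
    canC (mulC (sGens.getD 1 (oneC, 0, 0)).1 (sEl a)) = sEl (fieldAt sMulB 13 a) := by
  by_cases h0 : a < 2040
  · exact subMul_at subB0_ok (by omega) (by omega)
  by_cases h1 : a < 4080
  · exact subMul_at subB1_ok (by omega) (by omega)
  by_cases h2 : a < 6120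
  · exact subMul_at subB2_ok (by omega) (by omega)
  exact subMul_at subB3_ok (by omega) (by omega)

variable {F : Type} [Field F] [Fintype F] {ω : F} (hF : Fintype.card F = 4) (hω : ω ^ 2 + ω + 1 = 0)

include hF hω

theorem att_cano {a : ℕ} (ha : Att F ω a) : Att F ω (cano a) := by
  obtain ⟨h1, -⟩ := qel_omC hF hω ha
  obtain ⟨h2, -⟩ := qel_omC hF hω h1
  rw [cano]
  rcases min_choice a (min (omC a) (omC (omC a))) with h | h <;> rw [h]
  · exact ha
  rcases min_choice (omC a) (omC (omC a)) with h | h <;> rw [h]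
  · exact h1
  · exact h2

theorem att_sEl : ∀ a, a < 8160 → Att F ω (sEl a) ∧ wf (sEl a) = true := by
  have h := subParents_ok
  simp only [okSubParents, Bool.and_eq_true, List.all_eq_true, List.mem_range, Nat.beq_eq, Nat.blt_eq, canC_eq] at h
  have hwf : ∀ n, wf n = true → wf (cano n) = true := fun n hn => by
    rw [cano]
    rcases min_choice n (min (omC n) (omC (omC n))) with e | e <;> rw [e]
    · exact hn
    rcases min_choice (omC n) (omC (omC n)) with e | e <;> rw [e]
    · exact wf_omC _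
    · exact wf_omC _
  intro a
  induction a using Nat.strong_induction_on with
  | _ a ih =>
    intro ha
    rcases Nat.eq_zero_or_pos a with rfl | hp
    · rw [h.1]
      exact ⟨att_cano hF hω (att_one hF hω), hwf _ (by
        have hd := data_ok
        simp only [okData, Bool.and_eq_true] at hd
        exact hd.1.1.2)⟩
    · obtain ⟨k, rfl⟩ : ∃ k, a = k + 1 := ⟨a - 1, by omega⟩
      obtain ⟨h1, h2⟩ := h.2 k (by omega)
      rw [← h2]
      exact ⟨att_cano hF hω (att_mul hF hω (att_let hF hω sGens_ok _) (ih _ h1 (by omega)).1), hwf _ (wf_mulC _ _)⟩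

/-- The subgroup of order 8160. -/
theorem exists_sub : ∃ S : Subgroup (J3 F ω), Nat.card S = 8160 := by
  classical
  haveI : Finite (J3 F ω) := finite_J3
  let f : Fin 8160 → J3 F ω := fun a => qel F ω (sEl a.val)
  let g : Fin 2 → J3 F ω := fun k => qel F ω (sGens.getD k.val (oneC, 0, 0)).1
  have hpar := subParents_ok
  simp only [okSubParents, Bool.and_eq_true, List.all_eq_true, List.mem_range, Nat.beq_eq, Nat.blt_eq, canC_eq] at hpar
  have h0 : f ⟨0, by norm_num⟩ = 1 := by
    show qel F ω (sEl 0) = 1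
    rw [hpar.1, qel_cano hF hω (att_one hF hω), qel_one hF hω]
  have key : ∀ (c b : ℕ) (a : Fin 8160), Att F ω c → canC (mulC c (sEl a.val)) = sEl b →
      qel F ω c * f a = qel F ω (sEl b) := fun c b a hc e => by
    rw [← e, canC_eq, qel_cano hF hω (att_mul hF hω hc (att_sEl hF hω _ a.2).1),
      qel_mul hF hω hc (att_sEl hF hω _ a.2).1]
  have hlist : ∀ x ∈ Subgroup.closure (Set.range g), ∃ a, f a = x := by
    refine closure_subset_range f _ ⟨0, by norm_num⟩ h0 ?_
    rintro x ⟨k, rfl⟩ a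
    fin_cases k
    · exact ⟨⟨_, (subA_spec a.2).1⟩, key _ _ a (att_let hF hω sGens_ok 0) (subA_spec a.2).2⟩
    · exact ⟨⟨_, (subB_spec a.2).1⟩, key _ _ a (att_let hF hω sGens_ok 1) (subB_spec a.2).2⟩
  have hmem : ∀ a, a < 8160 → qel F ω (sEl a) ∈ Subgroup.closure (Set.range g) := by
    intro a
    induction a using Nat.strong_induction_on with
    | _ a ih =>
      intro ha
      rcases Nat.eq_zero_or_pos a with rfl | hp
      · rw [show qel F ω (sEl 0) = 1 from h0]; exact one_mem _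
      · obtain ⟨k, rfl⟩ : ∃ k, a = k + 1 := ⟨a - 1, by omega⟩
        obtain ⟨h1, h2⟩ := hpar.2 k (by omega)
        have hm : fieldAt sParents 14 (k + 1) % 2 < 2 := Nat.mod_lt _ (by norm_num)
        have ha1 := (att_sEl hF hω _ (show fieldAt sParents 14 (k + 1) / 2 < 8160 by omega)).1
        rw [← h2, qel_cano hF hω (att_mul hF hω (att_let hF hω sGens_ok _) ha1),
          ← qel_mul hF hω (att_let hF hω sGens_ok _) ha1]
        exact mul_mem (Subgroup.subset_closure ⟨⟨_, hm⟩, rfl⟩) (ih _ h1 (by omega))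
  have hdist := subDistinct_ok
  simp only [okSubDistinct, List.all_eq_true, List.mem_range, Bool.and_eq_true, Bool.or_eq_true,
    Nat.blt_eq, Nat.beq_eq, canC_eq] at hdist
  have hmono : ∀ i j, i < j → j < 8160 → sEl (fieldAt sIdx 13 i) < sEl (fieldAt sIdx 13 j) := by
    intro i j hij hj
    induction j with
    | zero => omega
    | succ j ih =>
      have h1 : sEl (fieldAt sIdx 13 j) < sEl (fieldAt sIdx 13 (j + 1)) :=
        (hdist j (by omega)).2.resolve_left (by omega)
      rcases Nat.lt_succ_iff_lt_or_eq.1 hij with h2 | h2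
      · exact (ih h2 (by omega)).trans h1
      · rw [h2]; exact h1
  refine ⟨Subgroup.closure (Set.range g), ?_⟩
  let F' : Fin 8160 → Subgroup.closure (Set.range g) := fun a => ⟨f a, hmem a a.2⟩
  have hF' : Function.Bijective F' := by
    refine ⟨fun a b e => ?_, fun x => ?_⟩
    · have e1 : sEl a.val = sEl b.val := by
        have h := cano_eq_of_qel hF hω (att_sEl hF hω _ a.2).1 (att_sEl hF hω _ b.2).1
          (att_sEl hF hω _ a.2).2 (att_sEl hF hω _ b.2).2 (congrArg Subtype.val e)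
        rwa [(hdist a a.2).1.2, (hdist b b.2).1.2] at h
      obtain ⟨⟨⟨ha1, ha2⟩, -⟩, -⟩ := hdist a a.2
      obtain ⟨⟨⟨hb1, hb2⟩, -⟩, -⟩ := hdist b b.2
      refine Fin.ext ?_
      rcases lt_trichotomy (fieldAt sRank 13 a.val) (fieldAt sRank 13 b.val) with h3 | h3 | h3
      · have := hmono _ _ h3 hb1; rw [ha2, hb2, e1] at this; exact absurd this (lt_irrefl _)
      · rw [← ha2, h3, hb2]
      · have := hmono _ _ h3 ha1; rw [ha2, hb2, e1] at this; exact absurd this (lt_irrefl _)
    · obtain ⟨a, ha⟩ := hlist x.1 x.2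
      exact ⟨a, Subtype.ext ha⟩
  rw [← Nat.card_eq_of_bijective F' hF', Nat.card_fin]

theorem perm_realization : ∃ H : Subgroup (Equiv.Perm (Fin 6156)), Cfsg.IsJ3 H ∧
    MulAction.IsPretransitive H (Fin 6156) ∧ Nat.card (MulAction.stabilizer H (0 : Fin 6156)) = 8160 := by
  classical
  haveI : Finite (J3 F ω) := finite_J3
  haveI := simple_J3 hF hω
  obtain ⟨S, hS⟩ := exists_sub hF hω
  have hidx : Nat.card (J3 F ω ⧸ S) = 6156 := by
    have h := Subgroup.card_eq_card_quotient_mul_card_subgroup S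
    rw [card_J3 hF hω, hS] at h
    omega
  obtain ⟨e, he⟩ : ∃ e : J3 F ω ⧸ S ≃ Fin 6156, e ((1 : J3 F ω) : J3 F ω ⧸ S) = 0 := by
    obtain ⟨e0⟩ : Nonempty (J3 F ω ⧸ S ≃ Fin 6156) := ⟨Finite.equivFinOfCardEq hidx⟩
    exact ⟨e0.trans (Equiv.swap (e0 ((1 : J3 F ω) : J3 F ω ⧸ S)) 0), by simp⟩
  let φ : J3 F ω →* Equiv.Perm (Fin 6156) :=
    e.permCongrHom.toMonoidHom.comp (MulAction.toPermHom (J3 F ω) (J3 F ω ⧸ S))
  have happ : ∀ (g x : J3 F ω), φ g (e (x : J3 F ω ⧸ S)) = e ((g * x : J3 F ω) : J3 F ω ⧸ S) := fun g x => by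
    show e (g • e.symm (e (x : J3 F ω ⧸ S))) = _
    rw [Equiv.symm_apply_apply, MulAction.Quotient.smul_coe, smul_eq_mul]
  have hmemS : ∀ g, φ g 0 = 0 ↔ g ∈ S := fun g => by
    rw [← he, happ, mul_one, e.apply_eq_iff_eq, eq_comm, QuotientGroup.eq, inv_one, one_mul]
  have hinj : Function.Injective φ := by
    refine (MonoidHom.ker_eq_bot_iff φ).1 ((IsSimpleGroup.eq_bot_or_eq_top_of_normal φ.ker inferInstance).resolve_right
      fun htop => ?_)
    have hle : (⊤ : Subgroup (J3 F ω)) ≤ S := fun g _ => by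
      have hg : g ∈ φ.ker := htop ▸ Subgroup.mem_top g
      rw [← hmemS, MonoidHom.mem_ker.1 hg]
      rfl
    have h1 := Subgroup.card_le_of_le hle
    rw [Subgroup.card_top, card_J3 hF hω, hS] at h1
    omega
  let ψ : J3 F ω ≃* φ.range := MonoidHom.ofInjective hinj
  haveI : Nontrivial φ.range := ψ.symm.toEquiv.nontrivial
  refine ⟨φ.range, ⟨IsSimpleGroup.isSimpleGroup_of_surjective ψ.toMonoidHom ψ.surjective,
    (Nat.card_congr ψ.symm.toEquiv).trans (card_J3 hF hω)⟩, ⟨fun x y => ?_⟩, ?_⟩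
  · obtain ⟨a, ha⟩ := QuotientGroup.mk_surjective (e.symm x)
    obtain ⟨b, hb⟩ := QuotientGroup.mk_surjective (e.symm y)
    refine ⟨⟨φ (b * a⁻¹), _, rfl⟩, ?_⟩
    show φ (b * a⁻¹) x = y
    rw [← e.apply_symm_apply x, ← ha, happ, inv_mul_cancel_right, hb, e.apply_symm_apply]
  · refine (Nat.card_congr (Equiv.symm (ψ.toEquiv.subtypeEquiv fun g => ?_))).trans hS
    rw [MulAction.mem_stabilizer_iff]
    exact (hmemS g).symm

end CfsgLib.J3Mult
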